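import Cfsg.Agent.H302.RIM.Six
import Cfsg.Agent.H610.NX.XCentral

/-!
# S4816, layer (BP), `p = 3`: `s = 2`, `n ≤ 5`, `X ≤ Z(Y)` (helper263, from helper302's `le_five` and helper610's `X_central`)
-/

set_option autoImplicit false

namespace Cfsg.Agent.H263.RIM

/-- `s = 2`, `n ≤ 5` and `X` is central -/
theorem hX_three {s n f : ℕ} {Y U : Type*} [Group Y] [Finite Y] [AddCommGroup U] [Finite U] [DistribMulAction Y U]
    {X : Subgroup Y} {B : U → U → ZMod s} (h : SP 3 s n f X B) : s = 2 ∧ n ≤ 5 ∧ X ≤ Subgroup.center Y := by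
  obtain ⟨rfl, hn⟩ := Cfsg.Agent.H302.RIM.le_five h
  obtain ⟨q₀, S⟩ := Cfsg.Agent.H302.RIM.exists_SX' h
  exact ⟨rfl, hn, Cfsg.Agent.H610.NX.X_central S hn⟩

end Cfsg.Agent.H263.RIM
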